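import Cfsg.Agent.Co2U62.Check
import Cfsg.Agent.Leech.Dot16
import Cfsg.Agent.Leech.StabOrder

/-!
The stabiliser of two vectors of inner product -2 acting on 891 vectors.
-/

set_option autoImplicit false
set_option maxRecDepth 100000

namespace CfsgLib.Co2U62

open Cfsg CfsgLib.Leech CfsgLib.Leech.Co3Mult CfsgLib.Golay MulAction
open Equiv (Perm)

/-- The first vector. -/
def VU : leechLattice := ⟨_, inLeech_spec chk_fixed.2.2.1⟩

/-- The second vector. -/
def WU : leechLattice := ⟨_, inLeech_spec chk_fixed.2.2.2.1⟩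

theorem pair_data : sqNorm VU.1 = 32 ∧ sqNorm WU.1 = 32 ∧ dotInt VU.1 WU.1 = -16 := chk_fixed.2.2.2.2

/-- The joint stabiliser. -/
def KU : Subgroup Co0 := stabilizer Co0 VU ⊓ stabilizer Co0 WU

theorem mem_KU {g : Co0} : g ∈ KU ↔ g • VU = VU ∧ g • WU = WU := Iff.rfl

theorem card_KU : Nat.card KU = 9196830720 := by
  have hv := pair_data.1
  let G := stabilizer Co0 VU
  have hG : Nat.card G = 42305421312000 := card_stab32 hv
  have horb : (Subtype.val '' orbit G WU) = dotSet VU.1 (-16) := by
    ext y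
    constructor
    · rintro ⟨z, ⟨g, rfl⟩, rfl⟩
      refine ⟨Subtype.prop _, (norm_smul _ _).trans pair_data.2.1, ?_⟩
      have := dot_smul (g : Co0) VU WU
      rw [mem_stabilizer_iff.1 g.2] at this
      exact this.trans pair_data.2.2
    · rintro ⟨hy, hn, hd⟩
      obtain ⟨g, g1, g2⟩ := transitive_dot16 (v := VU) (w := WU) (v' := VU) (w' := ⟨y, hy⟩) hv pair_data.2.1
        pair_data.2.2 hv hn hd
      exact ⟨⟨y, hy⟩, ⟨⟨g, g1⟩, g2⟩, rfl⟩
  have h4600 : (orbit G WU).ncard = 4600 := by
    rw [← Set.ncard_image_of_injective _ Subtype.val_injective, horb]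
    exact (census VU.2 hv).1
  have h := (stabilizer G WU).card_mul_index
  rw [index_stabilizer, h4600, hG] at h
  let e : stabilizer G WU ≃ KU :=
    { toFun := fun g => ⟨g.1.1, g.1.2, g.2⟩
      invFun := fun g => ⟨⟨g.1, g.2.1⟩, g.2.2⟩
      left_inv := fun _ => rfl
      right_inv := fun _ => rfl }
  rw [← Nat.card_congr e]
  omega

instance finite_KU : Finite KU := Nat.finite_of_card_ne_zero (by rw [card_KU]; norm_num)

theorem vpt_spec (i : Fin 891) : wf (vpt i.val) = true ∧ inLeech (Val (vpt i.val)) = true := by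
  have h := allLt_spec chk_pts i.isLt
  simp only [Bool.and_eq_true] at h
  exact h

/-- A point. -/
def P (i : Fin 891) : leechLattice := ⟨_, inLeech_spec (vpt_spec i).2⟩

theorem incrN_pairwise : ∀ {l : List ℕ}, incrN l = true → l.Pairwise (· < ·)
  | [], _ => List.Pairwise.nil
  | [_], _ => List.pairwise_singleton _ _
  | x :: y :: r, h => by
    simp only [incrN, Bool.and_eq_true, decide_eq_true_eq] at h
    have ih := incrN_pairwise h.2
    refine List.pairwise_cons.2 ⟨fun z hz => ?_, ih⟩
    rcases List.mem_cons.1 hz with rfl | hz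
    · exact h.1
    · exact h.1.trans ((List.pairwise_cons.1 ih).1 z hz)

theorem inj_of_order {n : ℕ} {f : ℕ → ℕ} {ord : List ℕ}
    (h : ord.length = n ∧ (ord.all fun k => decide (k < n)) = true ∧ incrN (ord.map f) = true) {v w : Fin n}
    (e : f v.val = f w.val) : v = w := by
  simp only [List.all_eq_true, decide_eq_true_eq] at h
  obtain ⟨hlen, hb, hinc⟩ := h
  have hnd : (ord.map f).Nodup := (incrN_pairwise hinc).imp fun hlt => Nat.ne_of_lt hlt
  have hall : ∀ u : Fin n, u.val ∈ ord := by
    have hs : ord.toFinset = Finset.range n := Finset.eq_of_subset_of_card_le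
      (fun q hq => Finset.mem_range.2 (hb q (List.mem_toFinset.1 hq)))
      (by rw [Finset.card_range, List.toFinset_card_of_nodup (List.Nodup.of_map _ hnd), hlen])
    exact fun u => List.mem_toFinset.1 (hs.symm ▸ Finset.mem_range.2 u.isLt)
  exact Fin.ext (List.inj_on_of_nodup_map hnd (hall v) (hall w) e)

theorem P_inj {i j : Fin 891} (e : P i = P j) : i = j :=
  inj_of_order chk_ord (eq_of_Val (vpt_spec i).1 (vpt_spec j).1 (congrArg Subtype.val e))

/-- A generator maps the list of vectors to itself as tabulated. -/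
theorem mat_ex (g : Fin 2) : ∃ c : KU, ∀ k : Fin 891, ∃ j : Fin 891,
    j.val = tabN (permK.getD g.val 0) k.val ∧ P j = (c : Co0) • P k := by
  have h := allLt_spec chk_mats g.isLt
  simp only [Bool.and_eq_true, Nat.beq_eq] at h
  obtain ⟨⟨⟨⟨hm, hv⟩, hv'⟩, hw⟩, hw'⟩ := h
  obtain ⟨a, ha⟩ := exists_aut hm
  have hM : wfM (matsK.getD g.val []) = true := by
    simp only [matOk, Bool.and_eq_true] at hm
    exact hm.1.1.1.1.1.1
  have hfix : ∀ (y : leechLattice) (f : ℕ), y.1 = Val f → wf f = true → apOk (matsK.getD g.val []) f = true →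
      ∀ f', ap (matsK.getD g.val []) f = f' → (a • y).1 = Val f' := fun y f hy hf hap f' hf' => funext fun p => by
    have h1 := (ap_spec hM hf hap).2 p
    rw [hf', ← hy, ← ha] at h1
    omega
  refine ⟨⟨a, mem_KU.2 ⟨Subtype.ext (hfix VU vP rfl chk_fixed.1 hv vP hv'),
    Subtype.ext (hfix WU wP rfl chk_fixed.2.1 hw wP hw')⟩⟩, fun k => ?_⟩
  have hk := allLt_spec (allLt_spec chk_perm g.isLt) k.isLt
  simp only [Bool.and_eq_true, Nat.beq_eq, decide_eq_true_eq] at hk
  obtain ⟨⟨hlt, hap⟩, he⟩ := hk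
  exact ⟨⟨_, hlt⟩, rfl, (Subtype.ext (hfix (P k) (vpt k.val) rfl (vpt_spec k).1 hap _ he)).symm⟩

/-- The matrices as elements. -/
noncomputable def kgen (g : Fin 2) : KU := (mat_ex g).choose

/-- The generated subgroup. -/
noncomputable def H0 : Subgroup KU := Subgroup.closure (Set.range kgen)

theorem exists_pos (c : H0) (i : Fin 891) : ∃ j, P j = ((c : KU) : Co0) • P i := by
  obtain ⟨c, hc⟩ := c
  induction hc using Subgroup.closure_induction generalizing i with
  | mem x hx =>
    obtain ⟨g, rfl⟩ := hx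
    obtain ⟨j, -, hj⟩ := (mat_ex g).choose_spec i
    exact ⟨j, hj⟩
  | one => exact ⟨i, (one_smul _ _).symm⟩
  | mul a b _ _ ha hb =>
    obtain ⟨u, hu⟩ := hb i
    obtain ⟨w, hw⟩ := ha u
    exact ⟨w, by rw [hw, hu]; exact (mul_smul _ _ _).symm⟩
  | inv a _ ha =>
    choose f hf using ha
    have hinj : Function.Injective f := fun u v e =>
      P_inj (MulAction.injective (a : Co0) (by
        show (a : Co0) • P u = (a : Co0) • P v
        exact (hf u).symm.trans ((congrArg P e).trans (hf v))))
    obtain ⟨u, rfl⟩ := Finite.injective_iff_surjective.1 hinj i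
    refine ⟨u, ?_⟩
    show P u = ((a⁻¹ : KU) : Co0) • P (f u)
    rw [Subgroup.coe_inv, hf u, inv_smul_smul]

/-- The action on the vectors. -/
noncomputable def sigma : H0 →* Perm (Fin 891) :=
  MonoidHom.toHomPerm
    { toFun := fun c => (fun i => (exists_pos c i).choose : Function.End (Fin 891))
      map_one' := funext fun i => P_inj ((exists_pos 1 i).choose_spec.trans (one_smul _ _))
      map_mul' := fun g h => funext fun i => P_inj (by
        show P (exists_pos (g * h) i).choose = P (exists_pos g (exists_pos h i).choose).choose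
        rw [(exists_pos _ _).choose_spec, (exists_pos _ _).choose_spec, (exists_pos _ _).choose_spec,
          Subgroup.coe_mul, Subgroup.coe_mul, mul_smul]) }

theorem sigma_spec (c : H0) (i : Fin 891) : P (sigma c i) = ((c : KU) : Co0) • P i := (exists_pos c i).choose_spec

/-- The packed table describes the element. -/
def Rep (t : ℕ) (c : H0) : Prop := ∀ k : Fin 891, (sigma c k).val = tabN t k.val

/-- The generators inside the generated subgroup. -/
noncomputable def hgen (g : Fin 2) : H0 := ⟨kgen g, Subgroup.subset_closure ⟨g, rfl⟩⟩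

theorem hgen_rep (g : Fin 2) : Rep (permK.getD g.val 0) (hgen g) := fun k => by
  obtain ⟨j, hj, e⟩ := (mat_ex g).choose_spec k
  rw [P_inj ((sigma_spec (hgen g) k).trans e.symm), hj]

theorem slp_mem {el : List ℕ} {st : List (ℕ × ℕ)} {x y : ℕ} (h : slpOk el st x y = true) (H : Subgroup H0)
    (hx : ∃ σ, σ ∈ H ∧ Rep x σ) (hy : ∃ σ, σ ∈ H ∧ Rep y σ) :
    ∀ i < el.length, ∃ σ, σ ∈ H ∧ Rep (el.getD i 0) σ := by
  simp only [slpOk, Bool.and_eq_true, beq_iff_eq, decide_eq_true_eq, List.all_eq_true, List.mem_range] at h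
  obtain ⟨⟨⟨hlen, h0⟩, h1⟩, hs⟩ := h
  intro i
  induction i using Nat.strong_induction_on with
  | _ i ih =>
    intro hi
    rcases i with _ | _ | k
    · exact h0.symm ▸ hx
    · exact h1.symm ▸ hy
    · obtain ⟨⟨ha, hb⟩, he⟩ := hs k (by omega)
      obtain ⟨s, hs1, hsr⟩ := ih _ (by omega) (show (st.getD k (0, 0)).1 < el.length by omega)
      obtain ⟨t, ht1, htr⟩ := ih _ (by omega) (show (st.getD k (0, 0)).2 < el.length by omega)
      refine ⟨s * t, mul_mem hs1 ht1, fun u => ?_⟩
      rw [map_mul, Perm.mul_apply, hsr, htr, ← beq_iff_eq.1 (allLt_spec he u.isLt)]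

theorem tree_card (H : Subgroup (Perm (Fin 891))) (el : List ℕ) (x : Fin 891) (gs : List ℕ)
    (hgs : ∀ g ∈ gs, ∃ σ ∈ H, ∀ k : Fin 891, (σ k).val = tabN (el.getD g 0) k.val) :
    ∀ (tr : List (ℕ × ℕ × ℕ)) (seen : ℕ) (T : Finset (Fin 891)), orbTree el tr gs seen = true →
      (∀ i, seen.testBit i = true ↔ ∃ t ∈ T, t.val = i) → (↑T ⊆ MulAction.orbit H x) →
      T.card + tr.length ≤ (MulAction.orbit H x).ncard
  | [], _, T, _, _, hsub => by
    rw [List.length_nil, Nat.add_zero, ← Set.ncard_coe_finset]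
    exact Set.ncard_le_ncard hsub
  | (g, p, q) :: r, seen, T, hok, hbit, hsub => by
    simp only [orbTree, Bool.and_eq_true, Bool.not_eq_true', beq_iff_eq, List.elem_iff] at hok
    obtain ⟨⟨⟨⟨hg, hp⟩, hq⟩, himg⟩, hrest⟩ := hok
    obtain ⟨t, ht, rfl⟩ := (hbit p).1 hp
    obtain ⟨σ, hσ, hr⟩ := hgs g hg
    have hv : (σ t).val = q := by rw [hr]; exact himg
    have hnew : σ t ∉ T := fun hm => by
      have := (hbit q).2 ⟨_, hm, hv⟩
      simp [hq] at this
    classical
    have := tree_card H el x gs hgs r (seen ||| 1 <<< q) (insert (σ t) T) hrest (fun i => ?_) ?_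
    · rw [Finset.card_insert_of_notMem hnew] at this
      rw [List.length_cons]
      omega
    · rw [Nat.testBit_lor, Nat.one_shiftLeft, Nat.testBit_two_pow, Bool.or_eq_true, decide_eq_true_eq, hbit]
      constructor
      · rintro (⟨s, hs, e⟩ | e)
        · exact ⟨s, Finset.mem_insert_of_mem hs, e⟩
        · exact ⟨σ t, Finset.mem_insert_self _ _, hv.trans e⟩
      · rintro ⟨s, hs, e⟩
        rcases Finset.mem_insert.1 hs with rfl | hs
        · exact Or.inr (hv.symm.trans e)
        · exact Or.inl ⟨s, hs, e⟩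
    · rw [Finset.coe_insert]
      refine Set.insert_subset_iff.2 ⟨?_, hsub⟩
      exact MulAction.mem_orbit_of_mem_orbit (⟨σ, hσ⟩ : H) (hsub ht)

theorem stab_split (H : Subgroup (Perm (Fin 891))) (x : Fin 891) :
    Nat.card H = (MulAction.orbit H x).ncard * Nat.card (H ⊓ stabilizer (Perm (Fin 891)) x : Subgroup _) := by
  have h := (stabilizer H x).card_mul_index
  rw [index_stabilizer, mul_comm] at h
  rw [← h]
  congr 1
  exact Nat.card_congr
    { toFun := fun g => ⟨g.1.1, g.1.2, g.2⟩
      invFun := fun g => ⟨⟨g.1, g.2.1⟩, g.2.2⟩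
      left_inv := fun _ => rfl
      right_inv := fun _ => rfl }

theorem card_ge (el : List ℕ) : ∀ (lv : List (ℕ × List ℕ × List (ℕ × ℕ × ℕ))) (pre : List ℕ)
    (H : Subgroup (Perm (Fin 891))), levOk el lv pre = true →
    (∀ i < el.length, (∀ q ∈ pre, tabN (el.getD i 0) q = q) → ∃ σ ∈ H, ∀ k : Fin 891, (σ k).val = tabN (el.getD i 0) k.val) →
    (lv.map fun l => l.2.2.length + 1).prod ≤ Nat.card H
  | [], _, H, _, _ => by rw [List.map_nil, List.prod_nil]; exact Nat.card_pos
  | (x, gs, tr) :: rest, pre, H, hok, hmem => by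
    simp only [levOk, Bool.and_eq_true, decide_eq_true_eq, List.all_eq_true, beq_iff_eq] at hok
    obtain ⟨⟨⟨hx, hg⟩, htr⟩, hrest⟩ := hok
    rw [List.map_cons, List.prod_cons, stab_split H ⟨x, hx⟩]
    refine Nat.mul_le_mul ?_ (card_ge el rest (x :: pre) _ hrest fun i hi hfix => ?_)
    · have h := tree_card H el ⟨x, hx⟩ gs (fun g hgm => hmem g (hg g hgm).1 (hg g hgm).2) tr (1 <<< x) {⟨x, hx⟩}
        htr (fun i => ?_) ?_
      · rw [Finset.card_singleton] at h
        show tr.length + 1 ≤ _
        omega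
      · rw [Nat.one_shiftLeft, Nat.testBit_two_pow]
        simp
      · rw [Finset.coe_singleton, Set.singleton_subset_iff]
        exact MulAction.mem_orbit_self _
    · obtain ⟨σ, hσ, hr⟩ := hmem i hi fun q hq => hfix q (List.mem_cons_of_mem _ hq)
      refine ⟨σ, ⟨hσ, Fin.ext ?_⟩, hr⟩
      show (σ ⟨x, hx⟩).val = x
      rw [hr]; exact hfix x List.mem_cons_self

theorem card_H0_ge : 9196830720 ≤ Nat.card H0 := by
  refine le_trans ?_ (Nat.card_le_card_of_surjective _ sigma.rangeRestrict_surjective)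
  rw [← chk_levS.2]
  refine card_ge eltsS levelsS [] _ chk_levS.1 fun i hi _ => ?_
  obtain ⟨σ, -, hr⟩ := slp_mem chk_progS ⊤ ⟨hgen 0, trivial, hgen_rep 0⟩ ⟨hgen 1, trivial, hgen_rep 1⟩ i hi
  exact ⟨_, ⟨σ, rfl⟩, hr⟩

theorem H0_top : H0 = ⊤ :=
  Subgroup.eq_top_of_card_eq _ (le_antisymm (Subgroup.card_le_card_group _) (card_KU ▸ card_H0_ge))

theorem card_H0 : Nat.card H0 = 9196830720 := by rw [H0_top, Subgroup.card_top, card_KU]

theorem closure_hgen : Subgroup.closure (Set.range hgen) = ⊤ := by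
  refine Subgroup.map_injective H0.subtype_injective ?_
  rw [MonoidHom.map_closure, ← MonoidHom.range_eq_map, Subgroup.range_subtype, ← Set.range_comp]
  rfl

theorem map_coord (f : leechLattice →+ leechLattice) {c : List ℤ} {ys : List leechLattice}
    (hf : ∀ y ∈ ys, f y = y) :
    f ((c.zip ys).map fun cy => cy.1 • cy.2).sum = ((c.zip ys).map fun cy => cy.1 • cy.2).sum := by
  rw [map_list_sum, List.map_map]
  refine congrArg List.sum (List.map_congr_left fun cy hcy => ?_)
  show f (cy.1 • cy.2) = cy.1 • cy.2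
  rw [map_zsmul, hf _ (List.of_mem_zip hcy).2]

/-- An element fixing enough vectors is trivial. -/
theorem eq_one_of_fix {c : H0} (hsep : ∀ p ∈ selV, ∀ hp : p < 891, sigma c ⟨p, hp⟩ = ⟨p, hp⟩) : c = 1 := by
  let f : leechLattice →+ leechLattice := AddMonoidHom.mk' (fun v => ((c : KU) : Co0) • v) (smul_add' _)
  have hsel : ∀ p ∈ selV, p < 891 := fun p hp => by
    obtain ⟨i, hi, rfl⟩ := List.mem_iff_getElem.1 hp
    have h := allLt_spec chk_sel.2 hi
    simp only [Bool.and_eq_true, decide_eq_true_eq, List.getD_eq_getElem _ _ hi] at h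
    exact h.1.1
  have hP : ∀ i, sigma c i = i → f (P i) = P i := fun i hi => by
    show ((c : KU) : Co0) • P i = P i
    rw [← sigma_spec, hi]
  let ys : List leechLattice := [VU, WU] ++ selV.attach.map fun p => P ⟨p.1, hsel p.1 p.2⟩
  let cs : List ℕ := [vP, wP] ++ selV.map vpt
  have hys : ys.map Subtype.val = cs.map Val := by
    simp only [ys, cs, List.map_append, List.map_map]
    congr 1
  have hfix : ∀ y ∈ ys, f y = y := fun y hy => by
    simp only [ys, List.mem_append, List.mem_cons, List.not_mem_nil, or_false, List.mem_map, List.mem_attach,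
      true_and, Subtype.exists] at hy
    rcases hy with (rfl | rfl) | ⟨p, hp, rfl⟩
    · exact (mem_KU.1 (c : KU).2).1
    · exact (mem_KU.1 (c : KU).2).2
    · exact hP _ (hsep p hp _)
  have hE : ∀ j, f (eight j) = eight j := fun j => by
    set E : leechLattice := eight j with hE
    let co := spanRows.getD (idx j).val []
    have hrow : ((co.zip ys).map fun cy => cy.1 • cy.2).sum = spanD • E := by
      refine Subtype.ext (funext fun p => ?_)
      rw [AddSubgroup.val_list_sum, List.map_map, AddSubgroup.coe_zsmul, Pi.smul_apply, smul_eq_mul,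
        Pi.list_sum_apply, List.map_map]
      have h := allLt_spec (allLt_spec chk_span.2.2 (idx j).isLt) (idx p).isLt
      rw [beq_iff_eq] at h
      have hv : E.1 p = Val (e8 (idx j).val) p := by rw [hE, e8_val]; simp [eight, Pi.single_apply]
      rw [hv]
      refine Eq.trans ?_ h
      refine congrArg List.sum ?_
      show (co.zip ys).map _ = (co.zip cs).map _
      have e1 : (co.zip cs).map (fun cy => cy.1 * ((fld cy.2 (idx p).val : ℤ) - 8)) =
          (co.zip (cs.map Val)).map fun cy => cy.1 * cy.2 p := by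
        rw [List.zip_map_right, List.map_map]; rfl
      rw [e1, ← hys, List.zip_map_right, List.map_map]
      rfl
    have h2 := map_coord f (c := co) hfix
    rw [hrow, map_zsmul] at h2
    refine Subtype.ext (funext fun p => ?_)
    have h3 := congrArg (fun z : leechLattice => z.1 p) h2
    simp only [AddSubgroup.coe_zsmul, Pi.smul_apply, smul_eq_mul] at h3
    exact mul_left_cancel₀ chk_span.1 h3
  refine Subtype.ext (Subtype.ext (ext_eights fun j => ?_))
  rw [OneMemClass.coe_one, OneMemClass.coe_one, one_smul]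
  exact hE j


end CfsgLib.Co2U62
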