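import Mathlib
import Cfsg.Prelude.Def_Classical
import Cfsg.Agent.UGeom.Basic

/-!
The field with four elements on codes `a + 2 b` for `a + b r`, and six-dimensional vectors and matrices over it.
-/

set_option autoImplicit false

namespace CfsgLib.Co2U62

open Matrix CfsgLib.UGeom

/-- Sum of codes. -/
def addC (x y : ℕ) : ℕ := (x % 2 + y % 2) % 2 + 2 * ((x / 2 + y / 2) % 2)
/-- Product of codes. -/
def mulC (x y : ℕ) : ℕ :=
  (x % 2 * (y % 2) + x / 2 * (y / 2)) % 2 + 2 * ((x % 2 * (y / 2) + x / 2 * (y % 2) + x / 2 * (y / 2)) % 2)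
/-- Conjugate of a code. -/
def cjC (x : ℕ) : ℕ := (x % 2 + x / 2) % 2 + 2 * ((x / 2) % 2)
/-- Dot product. -/
def dotC (u v : List ℕ) : ℕ :=
  addC (addC (addC (mulC (u.getD 0 0) (v.getD 0 0)) (mulC (u.getD 1 0) (v.getD 1 0)))
    (addC (mulC (u.getD 2 0) (v.getD 2 0)) (mulC (u.getD 3 0) (v.getD 3 0))))
    (addC (mulC (u.getD 4 0) (v.getD 4 0)) (mulC (u.getD 5 0) (v.getD 5 0)))
/-- The Hermitian form. -/
def hermC (u v : List ℕ) : ℕ := dotC u ((List.range 6).map fun i => cjC (v.getD i 0))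
/-- Matrix times vector. -/
def mvC (A : List (List ℕ)) (v : List ℕ) : List ℕ := (List.range 6).map fun i => dotC (A.getD i []) v
/-- Scalar times vector. -/
def smulV (c : ℕ) (v : List ℕ) : List ℕ := (List.range 6).map fun i => mulC c (v.getD i 0)
/-- A unit vector. -/
def unitV (j : ℕ) : List ℕ := (List.range 6).map fun i => if i == j then 1 else 0
/-- A column. -/
def colC (A : List (List ℕ)) (j : ℕ) : List ℕ := (List.range 6).map fun i => (A.getD i []).getD j 0
/-- Repeated application. -/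
def iterV (A : List (List ℕ)) : ℕ → List ℕ → List ℕ
  | 0, v => v
  | k + 1, v => mvC A (iterV A k v)
/-- Unitary, of seventh power one. -/
def isSU (A : List (List ℕ)) : Bool :=
  (List.range 6).all fun i => iterV A 7 (unitV i) == unitV i &&
    (List.range 6).all fun j => hermC (colC A i) (colC A j) == if i == j then 1 else 0
/-- Six codes below four. -/
def okV (v : List ℕ) : Bool := v.length == 6 && v.all fun x => decide (x < 4)
/-- The number of a vector. -/
def encV (v : List ℕ) : ℕ :=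
  v.getD 0 0 + 4 * v.getD 1 0 + 16 * v.getD 2 0 + 64 * v.getD 3 0 + 256 * v.getD 4 0 + 1024 * v.getD 5 0
/-- The vector of a number. -/
def decV (n : ℕ) : List ℕ := (List.range 6).map fun i => n / 4 ^ i % 4

/-- A primitive cube root of one in characteristic two. -/
structure Root (F : Type*) [Field F] [Fintype F] where
  r : F
  sq : r * r = r + 1
  two : (2 : F) = 0
  conj : Conj F 2

variable {F : Type*} [Field F] [Fintype F]

theorem nonempty_root (hF : Fintype.card F = 4) : Nonempty (Root F) := by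
  classical
  obtain ⟨C⟩ := nonempty_conj (F := F) (q := 2) (by rw [hF]; norm_num)
  have h2 : (2 : F) = 0 := by
    have h4 : ((4 : ℕ) : F) = 0 := hF ▸ Nat.cast_card_eq_zero F
    have : (2 : F) * 2 = 0 := by norm_num at h4 ⊢; exact h4
    exact mul_self_eq_zero.1 this
  obtain ⟨x, -, hx⟩ := Finset.exists_mem_notMem_of_card_lt_card (s := ({0, 1} : Finset F)) (t := Finset.univ)
    (lt_of_le_of_lt Finset.card_le_two (by rw [Finset.card_univ, hF]; norm_num))
  simp only [Finset.mem_insert, Finset.mem_singleton, not_or] at hx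
  have h3 : x ^ 3 = 1 := by
    have h4 := FiniteField.pow_card_sub_one_eq_one x hx.1
    rw [hF] at h4
    exact h4
  have h : (x - 1) * (x * x + x + 1) = 0 := by linear_combination h3
  have h' := (mul_eq_zero.1 h).resolve_left (sub_ne_zero.2 hx.2)
  exact ⟨⟨x, by linear_combination h' - (x + 1) * h2, h2, C⟩⟩

variable (R : Root F)

/-- The field element of a code. -/
def φ (x : ℕ) : F := ((x % 2 : ℕ) : F) + ((x / 2 : ℕ) : F) * R.r

theorem cast_mod (R : Root F) (n : ℕ) : ((n % 2 : ℕ) : F) = (n : F) := by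
  conv_rhs => rw [← Nat.mod_add_div n 2]
  push_cast
  linear_combination -((n / 2 : ℕ) : F) * R.two

theorem φ_zero : φ R 0 = 0 := by simp [φ]
theorem φ_one : φ R 1 = 1 := by simp [φ]

theorem φ_mk (a b : ℕ) : φ R (a % 2 + 2 * (b % 2)) = (a : F) + (b : F) * R.r := by
  rw [φ, show (a % 2 + 2 * (b % 2)) % 2 = a % 2 by omega, show (a % 2 + 2 * (b % 2)) / 2 = b % 2 by omega,
    cast_mod R, cast_mod R]

theorem φ_addC (x y : ℕ) : φ R (addC x y) = φ R x + φ R y := by
  rw [addC, φ_mk, φ, φ]
  push_cast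
  ring

theorem φ_mulC (x y : ℕ) : φ R (mulC x y) = φ R x * φ R y := by
  rw [mulC, φ_mk, φ, φ]
  push_cast
  linear_combination (-(((x / 2 : ℕ) : F) * ((y / 2 : ℕ) : F))) * R.sq

theorem φ_cjC (x : ℕ) : φ R (cjC x) = φ R x ^ 2 := by
  have hc : ∀ n : ℕ, (n : F) ^ 2 = n := fun n => by
    rw [← cast_mod R n]
    have : n % 2 < 2 := Nat.mod_lt _ (by norm_num)
    rcases (by omega : n % 2 = 0 ∨ n % 2 = 1) with h | h <;> rw [h] <;> norm_num
  have h1 := hc (x % 2)
  have h2 := hc (x / 2)
  rw [cjC, φ_mk, φ]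
  push_cast
  linear_combination -h1 - (R.r * R.r) * h2 - ((x / 2 : ℕ) : F) * R.sq -
    ((x % 2 : ℕ) : F) * ((x / 2 : ℕ) : F) * R.r * R.two

theorem φ_inj {x y : ℕ} (hx : x < 4) (hy : y < 4) (h : φ R x = φ R y) : x = y := by
  have key : ∀ x < 4, ∀ y < 4, x ≠ y → ∃ z < 4, mulC (addC x y) z = 1 := by decide +kernel
  by_contra hne
  obtain ⟨z, -, hz⟩ := key x hx y hy hne
  have := congrArg (φ R) hz
  rw [φ_mulC, φ_addC, h, ← two_mul, R.two, zero_mul, zero_mul, φ_one] at this
  exact zero_ne_one this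

theorem φ_surj (x : F) : ∃ c < 4, φ R c = x := by
  have hb : Function.Bijective fun c : Fin 4 => φ R c.1 :=
    (Fintype.bijective_iff_injective_and_card _).2
      ⟨fun a b h => Fin.ext (φ_inj R a.2 b.2 h), by rw [Fintype.card_fin, R.conj.card]; rfl⟩
  obtain ⟨c, hc⟩ := hb.2 x
  exact ⟨c.1, c.2, hc⟩

/-- Vectors. -/
def φv (v : List ℕ) : Fin 6 → F := fun i => φ R (v.getD i.val 0)

/-- Matrices. -/
def φm (A : List (List ℕ)) : Matrix (Fin 6) (Fin 6) F := Matrix.of fun i => φv R (A.getD i.val [])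

theorem getD_range_map {f : ℕ → ℕ} (i : Fin 6) : ((List.range 6).map f).getD i.val 0 = f i.val := by
  rw [List.getD_eq_getElem _ _ (by simp), List.getElem_map, List.getElem_range]

theorem φ_dotC (u v : List ℕ) : φ R (dotC u v) = ∑ i, φv R u i * φv R v i := by
  simp [dotC, φv, Fin.sum_univ_six, φ_addC, φ_mulC]
  ring

theorem φ_hermC (u v : List ℕ) : φ R (hermC u v) = Cfsg.hermForm 6 F 2 (φv R u) (φv R v) := by
  rw [hermC, φ_dotC]
  refine Finset.sum_congr rfl fun i _ => ?_
  simp only [φv, getD_range_map, φ_cjC]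

theorem φv_mvC (A : List (List ℕ)) (v : List ℕ) : φv R (mvC A v) = φm R A *ᵥ φv R v := by
  funext i
  rw [φv, mvC, getD_range_map, φ_dotC]
  rfl

theorem φv_smulV (c : ℕ) (v : List ℕ) : φv R (smulV c v) = φ R c • φv R v := by
  funext i
  simp only [φv, smulV, getD_range_map, φ_mulC, Pi.smul_apply, smul_eq_mul]

theorem φv_unitV (j : Fin 6) : φv R (unitV j.val) = Pi.single j 1 := by
  funext i
  simp only [φv, unitV, getD_range_map]
  by_cases h : i = j
  · subst h; simp [φ_one]
  · rw [Pi.single_eq_of_ne h, if_neg (by simpa [Fin.val_inj] using h), φ_zero]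

theorem φv_colC (A : List (List ℕ)) (j : Fin 6) : φv R (colC A j.val) = fun i => φm R A i j := by
  funext i
  rw [φv, colC, getD_range_map]
  rfl

theorem okV_spec {v : List ℕ} (h : okV v = true) : v.length = 6 ∧ ∀ i, v.getD i 0 < 4 := by
  simp only [okV, Bool.and_eq_true, beq_iff_eq, List.all_eq_true, decide_eq_true_eq] at h
  refine ⟨h.1, fun i => ?_⟩
  rcases lt_or_ge i v.length with hi | hi
  · rw [List.getD_eq_getElem _ _ hi]; exact h.2 _ (List.getElem_mem hi)
  · rw [List.getD_eq_default _ _ hi]; norm_num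

theorem φv_inj {u v : List ℕ} (hu : okV u = true) (hv : okV v = true) (h : φv R u = φv R v) : u = v := by
  obtain ⟨lu, bu⟩ := okV_spec hu
  obtain ⟨lv, bv⟩ := okV_spec hv
  refine List.ext_getElem (lu.trans lv.symm) fun i h1 h2 => ?_
  rw [← List.getD_eq_getElem _ 0 h1, ← List.getD_eq_getElem _ 0 h2]
  exact φ_inj R (bu i) (bv i) (congrFun h ⟨i, lu ▸ h1⟩)

theorem okV_map {f : ℕ → ℕ} (hf : ∀ i, f i < 4) : okV ((List.range 6).map f) = true := by
  simp [okV, hf]

theorem okV_smulV (c : ℕ) (v : List ℕ) : okV (smulV c v) = true :=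
  okV_map fun i => by simp only [mulC]; omega

theorem okV_decV (n : ℕ) : okV (decV n) = true := okV_map fun i => Nat.mod_lt _ (by norm_num)

theorem φv_surj (x : Fin 6 → F) : ∃ v : List ℕ, okV v = true ∧ φv R v = x := by
  choose c hc hc' using fun i => φ_surj R (x i)
  refine ⟨(List.range 6).map fun i => if h : i < 6 then c ⟨i, h⟩ else 0, okV_map fun i => ?_, funext fun i => ?_⟩
  · split_ifs with h
    · exact hc _
    · norm_num
  · rw [φv, getD_range_map, dif_pos i.isLt, hc']

theorem decV_encV {v : List ℕ} (h : okV v = true) : encV v < 4096 ∧ decV (encV v) = v := by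
  obtain ⟨l, b⟩ := okV_spec h
  have b0 := b 0; have b1 := b 1; have b2 := b 2; have b3 := b 3; have b4 := b 4; have b5 := b 5
  rcases v with _ | ⟨x0, _ | ⟨x1, _ | ⟨x2, _ | ⟨x3, _ | ⟨x4, _ | ⟨x5, _ | ⟨x6, r⟩⟩⟩⟩⟩⟩⟩ <;> simp at l
  simp only [List.getD_cons_zero, List.getD_cons_succ] at b0 b1 b2 b3 b4 b5
  simp only [encV, decV, List.range_succ, List.range_zero, List.nil_append, List.cons_append, List.map_cons,
    List.map_nil, List.getD_cons_zero, List.getD_cons_succ, List.cons.injEq, and_true]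
  norm_num
  omega

theorem φv_iterV (A : List (List ℕ)) : ∀ (k : ℕ) (v : List ℕ), φv R (iterV A k v) = φm R A ^ k *ᵥ φv R v
  | 0, v => by rw [iterV, pow_zero, Matrix.one_mulVec]
  | k + 1, v => by rw [iterV, φv_mvC, φv_iterV A k v, Matrix.mulVec_mulVec, ← pow_succ']

theorem φm_SU {A : List (List ℕ)} (h : isSU A = true) :
    ∃ g : Cfsg.SU 6 F 2, (g.1.1 : Matrix (Fin 6) (Fin 6) F) = φm R A := by
  simp only [isSU, List.all_eq_true, List.mem_range, Bool.and_eq_true, beq_iff_eq] at h
  set M := φm R A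
  have h7 : M ^ 7 = 1 := by
    refine Matrix.ext fun i j => ?_
    have e := congrArg (φv R) (h j.val j.isLt).1
    rw [φv_iterV, φv_unitV, Matrix.mulVec_single_one] at e
    have := congrFun e i
    simpa [Matrix.one_apply, Pi.single_apply] using this
  have hU : ∀ i j, ∑ k, M k i * M k j ^ 2 = if i = j then 1 else 0 := fun i j => by
    have e := congrArg (φ R) ((h i.val i.isLt).2 j.val j.isLt)
    rw [φ_hermC, φv_colC, φv_colC] at e
    refine e.trans ?_
    by_cases hij : i = j
    · subst hij; simp [φ_one]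
    · rw [if_neg (by simpa [Fin.val_inj] using hij), if_neg hij, φ_zero]
  have hdet : M.det = 1 := by
    have hm : Mᵀ * R.conj.σ.mapMatrix M = 1 := Matrix.ext fun i j => by
      rw [Matrix.mul_apply, Matrix.one_apply, ← hU i j]
      refine Finset.sum_congr rfl fun k _ => ?_
      rw [RingHom.mapMatrix_apply, Matrix.map_apply, Matrix.transpose_apply, R.conj.pow]
    have h3 := congrArg Matrix.det hm
    rw [Matrix.det_mul, Matrix.det_transpose, ← RingHom.map_det, R.conj.pow, Matrix.det_one, ← pow_succ'] at h3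
    have e7 := congrArg Matrix.det h7
    rw [Matrix.det_pow, Matrix.det_one, show (7 : ℕ) = (2 + 1) * 2 + 1 from rfl, pow_succ, pow_mul, h3,
      one_pow, one_mul] at e7
    exact e7
  refine ⟨⟨⟨M, hdet⟩, fun x y => ?_⟩, rfl⟩
  change Cfsg.hermForm 6 F 2 (M *ᵥ x) (M *ᵥ y) = Cfsg.hermForm 6 F 2 x y
  rw [form_eq R.conj, form_eq R.conj]
  simp only [Matrix.mulVec, dotProduct, map_sum, map_mul, Finset.sum_mul, Finset.mul_sum]
  rw [Finset.sum_comm]
  refine Finset.sum_congr rfl fun i _ => ?_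
  rw [Finset.sum_comm]
  rw [Finset.sum_eq_single i]
  · have e := hU i i
    rw [if_pos rfl] at e
    simp only [← R.conj.pow] at e
    calc ∑ k, M k i * x i * (R.conj.σ (M k i) * R.conj.σ (y i))
        = (∑ k, M k i * R.conj.σ (M k i)) * (x i * R.conj.σ (y i)) := by
          rw [Finset.sum_mul]; exact Finset.sum_congr rfl fun k _ => by ring
      _ = x i * R.conj.σ (y i) := by rw [e, one_mul]
  · intro j _ hji
    have e := hU j i
    rw [if_neg hji] at e
    simp only [← R.conj.pow] at e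
    calc ∑ k, M k j * x j * (R.conj.σ (M k i) * R.conj.σ (y i))
        = (∑ k, M k j * R.conj.σ (M k i)) * (x j * R.conj.σ (y i)) := by
          rw [Finset.sum_mul]; exact Finset.sum_congr rfl fun k _ => by ring
      _ = 0 := by rw [e, zero_mul]
  · intro hi; exact absurd (Finset.mem_univ i) hi

end CfsgLib.Co2U62
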