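import Cfsg.Agent.Leech.Co3MultVec
import Cfsg.Agent.Co2U62.Code
import Cfsg.Agent.Co2U62.Data

/-!
Kernel checks for the stabiliser of two vectors acting on 891 vectors.
-/

set_option autoImplicit false
set_option maxRecDepth 100000
set_option Elab.async false

namespace CfsgLib.Co2U62

open CfsgLib.Leech CfsgLib.Leech.Co3Mult CfsgLib.Golay

/-- All below a bound. -/
def allLt (n : ℕ) (f : ℕ → Bool) : Bool := (List.range n).all f

theorem allLt_spec {n : ℕ} {f : ℕ → Bool} (h : allLt n f = true) {k : ℕ} (hk : k < n) : f k = true :=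
  List.all_eq_true.1 h k (List.mem_range.2 hk)

/-- An entry of a packed permutation. -/
def tabN (t k : ℕ) : ℕ := (t >>> (10 * k)) &&& 1023

/-- Increasing. -/
def incrN : List ℕ → Bool
  | [] => true
  | [_] => true
  | x :: y :: r => decide (x < y) && incrN (y :: r)

/-- A vector. -/
def vpt (i : ℕ) : ℕ := (ptsK.getD (i / 30) []).getD (i % 30) 0

/-- Check of a program over two starting values. -/
def slpOk (el : List ℕ) (st : List (ℕ × ℕ)) (x y : ℕ) : Bool :=
  el.length == st.length + 2 && (el.getD 0 0 == x) && (el.getD 1 0 == y) &&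
  (List.range st.length).all fun k =>
    let c := el.getD (k + 2) 0
    let a := el.getD (st.getD k (0, 0)).1 0
    let b := el.getD (st.getD k (0, 0)).2 0
    decide ((st.getD k (0, 0)).1 < k + 2) && decide ((st.getD k (0, 0)).2 < k + 2) &&
    allLt 891 fun i => tabN c i == tabN a (tabN b i)

/-- A spanning tree of an orbit. -/
def orbTree (el : List ℕ) : List (ℕ × ℕ × ℕ) → List ℕ → ℕ → Bool
  | [], _, _ => true
  | (g, p, q) :: r, gs, seen =>
    gs.elem g && seen.testBit p && !seen.testBit q && tabN (el.getD g 0) p == q && orbTree el r gs (seen ||| 1 <<< q)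

/-- Check of a chain. -/
def levOk (el : List ℕ) : List (ℕ × List ℕ × List (ℕ × ℕ × ℕ)) → List ℕ → Bool
  | [], _ => true
  | (x, gs, tr) :: rest, pre =>
    decide (x < 891) && (gs.all fun g => decide (g < el.length) && pre.all fun q => tabN (el.getD g 0) q == q) &&
    orbTree el tr gs (1 <<< x) && levOk el rest (x :: pre)

/-- An object. -/
def objN (j : ℕ) : ℕ := (objs.getD (j / 26) []).getD (j % 26) 0

/-- The members of an object. -/
def memN (j : ℕ) : List ℕ := (objMem.getD (j / 26) []).getD (j % 26) []

/-- The set of a list. -/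
def maskOf (l : List ℕ) : ℕ := l.foldr (fun x t => 2 ^ x ||| t) 0

/-- The image of an object. -/
def imgO (k j : ℕ) : ℕ := (permO.getD k []).getD j 0

/-- The isotropic point of an object. -/
def ptV (j : ℕ) : List ℕ := decV (ptCodes.getD j 0)

/-- The inverse of a code. -/
def invC (x : ℕ) : ℕ := if x == 2 then 3 else if x == 3 then 2 else x

/-- The normalised multiple of a vector. -/
def normV (v : List ℕ) : List ℕ := smulV (invC ((v.find? fun x => x != 0).getD 0)) v

/-- The index of a point. -/
def idxV (v : List ℕ) : ℕ := (ptTab.getD (encV v / 64) []).getD (encV v % 64) 0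

/-- A unitary matrix. -/
def matU (k : ℕ) : List (List ℕ) := matsU.getD k []

theorem chk_fixed : wf vP = true ∧ wf wP = true ∧ inLeech (Val vP) = true ∧ inLeech (Val wP) = true ∧
    Cfsg.sqNorm (Val vP) = 32 ∧ Cfsg.sqNorm (Val wP) = 32 ∧ Cfsg.dotInt (Val vP) (Val wP) = -16 := by decide +kernel

theorem chk_mats : (allLt 2 fun g => matOk (matsK.getD g []) (invsK.getD g []) &&
    apOk (matsK.getD g []) vP && Nat.beq (ap (matsK.getD g []) vP) vP &&
    apOk (matsK.getD g []) wP && Nat.beq (ap (matsK.getD g []) wP) wP) = true := by decide +kernel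

theorem chk_pts : (allLt 891 fun i => wf (vpt i) && inLeech (Val (vpt i))) = true := by decide +kernel

theorem chk_ord : ordK.length = 891 ∧ (ordK.all fun i => decide (i < 891)) = true ∧
    incrN (ordK.map vpt) = true := by decide +kernel

theorem chk_perm : (allLt 2 fun g => allLt 891 fun i => decide (tabN (permK.getD g 0) i < 891) &&
    apOk (matsK.getD g []) (vpt i) && Nat.beq (ap (matsK.getD g []) (vpt i)) (vpt (tabN (permK.getD g 0) i))) = true := by
  decide +kernel

theorem chk_progS : slpOk eltsS stepsS (permK.getD 0 0) (permK.getD 1 0) = true := by decide +kernel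

theorem chk_levS : levOk eltsS levelsS [] = true ∧
    (levelsS.map fun l => l.2.2.length + 1).prod = 9196830720 := by decide +kernel

theorem chk_objs : (allLt 693 fun j => (j == 692 || decide (objN j < objN (j + 1))) &&
    decide (objN j < 2 ^ 891) && (memN j).all (fun x => decide (x < 891)) && maskOf (memN j) == objN j) = true := by
  decide +kernel

theorem chk_imgs : (allLt 2 fun k => allLt 693 fun j => decide (imgO k j < 693) &&
    maskOf ((memN j).map (tabN (permK.getD k 0))) == objN (imgO k j)) = true := by decide +kernel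

theorem chk_sel : selV.length = meets.length ∧ (allLt selV.length fun i => decide (selV.getD i 0 < 891) &&
    (meets.getD i []).all (fun j => decide (j < 693) && (objN j).testBit (selV.getD i 0)) &&
    (meets.getD i []).foldr (fun j t => objN j &&& t) (2 ^ 891 - 1) == 2 ^ selV.getD i 0) = true := by
  decide +kernel

theorem chk_span : spanD ≠ 0 ∧ spanRows.length = 24 ∧ (allLt 24 fun j => allLt 24 fun t =>
    (((spanRows.getD j []).zip ([vP, wP] ++ selV.map vpt)).map fun cy => cy.1 * ((fld cy.2 t : ℤ) - 8)).sum ==
      spanD * ((fld (e8 j) t : ℤ) - 8)) = true := by decide +kernel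

theorem chk_ptV : (allLt 693 fun j => ptV j != decV 0 && hermC (ptV j) (ptV j) == 0 &&
    (List.range 4).all fun c => c == 0 || idxV (normV (smulV c (ptV j))) == j) = true := by decide +kernel

theorem chk_ptsAll : (allLt 4096 fun n => n == 0 || hermC (decV n) (decV n) != 0 ||
    (decide (idxV (normV (decV n)) < 693) &&
      (List.range 4).any fun l => smulV l (ptV (idxV (normV (decV n)))) == decV n)) = true := by decide +kernel

theorem chk_matU : (allLt 2 fun k => isSU (matU k) && allLt 693 fun j =>
    (List.range 4).any fun c => mvC (matU k) (ptV j) == smulV c (ptV (imgO k j))) = true := by decide +kernel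

end CfsgLib.Co2U62
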