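import Cfsg.Agent.Co2U62.Action
import Cfsg.Agent.UGeom.Simple
import Cfsg.Agent.UGeom.Center

/-!
The stabiliser of two vectors of inner product -2 is the six-dimensional unitary group over four elements.
-/

set_option autoImplicit false
set_option maxRecDepth 100000

namespace CfsgLib.Co2U62

open Matrix CfsgLib.UGeom
open Equiv (Perm)
open MulAction (toPermHom)

theorem obj_spec (j : Fin 693) : objN j.val < 2 ^ 891 ∧ (∀ x ∈ memN j.val, x < 891) ∧
    maskOf (memN j.val) = objN j.val ∧ (j.val + 1 < 693 → objN j.val < objN (j.val + 1)) := by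
  have h := allLt_spec chk_objs j.isLt
  simp only [Bool.and_eq_true, Bool.or_eq_true, decide_eq_true_eq, beq_iff_eq, List.all_eq_true] at h
  exact ⟨h.1.1.2, h.1.2, h.2, fun hj => h.1.1.1.resolve_left (by omega)⟩

theorem obj_mono : ∀ (b a : ℕ), a < b → b < 693 → objN a < objN b
  | 0, _, h, _ => absurd h (Nat.not_lt_zero _)
  | b + 1, a, hab, hb => by
    have h1 := (obj_spec ⟨b, by omega⟩).2.2.2 hb
    rcases Nat.lt_or_ge a b with hlt | hge
    · exact (obj_mono b a hlt (by omega)).trans h1
    · rw [show a = b by omega]; exact h1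

theorem obj_inj {i j : Fin 693} (e : objN i.val = objN j.val) : i = j := by
  rcases lt_trichotomy i.val j.val with h | h | h
  · exact absurd e (obj_mono _ _ h j.isLt).ne
  · exact Fin.ext h
  · exact absurd e.symm (obj_mono _ _ h i.isLt).ne

theorem obj_high (j : Fin 693) {y : ℕ} (hy : ¬ y < 891) : (objN j.val).testBit y = false :=
  Nat.testBit_lt_two_pow ((obj_spec j).1.trans_le (Nat.pow_le_pow_right (by norm_num) (by omega)))

theorem testBit_maskOf : ∀ (l : List ℕ) (y : ℕ), (maskOf l).testBit y = l.elem y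
  | [], y => by simp [maskOf]
  | a :: l, y => by
    rw [maskOf, List.foldr_cons, Nat.testBit_lor, Nat.testBit_two_pow]
    change (decide (a = y) || (maskOf l).testBit y) = _
    rw [testBit_maskOf l y, List.elem_cons]
    by_cases h : y = a
    · subst h; simp
    · rw [show (y == a) = false from beq_false_of_ne h, decide_eq_false (Ne.symm h), Bool.false_or]

/-- The image of an object. -/
def Img (c : H0) (j j' : Fin 693) : Prop :=
  ∀ x : Fin 891, (objN j'.val).testBit (sigma c x).val = (objN j.val).testBit x.val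

theorem img_unique {c : H0} {j j' j'' : Fin 693} (h1 : Img c j j') (h2 : Img c j j'') : j' = j'' := by
  refine obj_inj (Nat.eq_of_testBit_eq fun y => ?_)
  by_cases hy : y < 891
  · obtain ⟨x, hx⟩ := (sigma c).surjective ⟨y, hy⟩
    have e := congrArg Fin.val hx
    simp only at e
    rw [← e, h1, h2]
  · rw [obj_high _ hy, obj_high _ hy]

theorem img_hgen (k : Fin 2) (j : Fin 693) : ∃ j', Img (hgen k) j j' ∧ j'.val = imgO k.val j.val := by
  have h := allLt_spec (allLt_spec chk_imgs k.isLt) j.isLt
  simp only [Bool.and_eq_true, decide_eq_true_eq, beq_iff_eq] at h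
  refine ⟨⟨_, h.1⟩, fun x => ?_, rfl⟩
  show (objN (imgO k.val j.val)).testBit _ = _
  obtain ⟨-, hlt, hm, -⟩ := obj_spec j
  rw [← h.2, ← hm, testBit_maskOf, testBit_maskOf, hgen_rep k x, Bool.eq_iff_iff, List.elem_iff, List.elem_iff,
    List.mem_map]
  constructor
  · rintro ⟨y, hy, e⟩
    have : sigma (hgen k) ⟨y, hlt y hy⟩ = sigma (hgen k) x :=
      Fin.ext (by rw [hgen_rep k _, hgen_rep k x]; exact e)
    rw [← (sigma (hgen k)).injective this]
    exact hy
  · exact fun hx => ⟨_, hx, rfl⟩

theorem exists_img (c : H0) (j : Fin 693) : ∃ j', Img c j j' := by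
  have hc : c ∈ Subgroup.closure (Set.range hgen) := closure_hgen ▸ Subgroup.mem_top c
  induction hc using Subgroup.closure_induction generalizing j with
  | mem x hx => obtain ⟨k, rfl⟩ := hx; exact ⟨_, (img_hgen k j).choose_spec.1⟩
  | one => exact ⟨j, fun x => by rw [map_one]; rfl⟩
  | mul a b _ _ ha hb =>
    obtain ⟨u, hu⟩ := hb j
    obtain ⟨w, hw⟩ := ha u
    exact ⟨w, fun x => by rw [map_mul, Perm.mul_apply, hw, hu]⟩
  | inv a _ ha =>
    choose f hf using ha
    have hinj : Function.Injective f := fun u v e => by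
      have hu := hf u
      have hv := hf v
      rw [e] at hu
      refine obj_inj (Nat.eq_of_testBit_eq fun y => ?_)
      by_cases hy : y < 891
      · exact (hu ⟨y, hy⟩).symm.trans (hv ⟨y, hy⟩)
      · rw [obj_high _ hy, obj_high _ hy]
    obtain ⟨u, rfl⟩ := Finite.injective_iff_surjective.1 hinj j
    refine ⟨u, fun x => ?_⟩
    have h := hf u ((sigma a).symm x)
    rw [Equiv.apply_symm_apply] at h
    rw [map_inv]
    exact h.symm

/-- The action on the objects. -/
noncomputable def psi : H0 →* Perm (Fin 693) :=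
  MonoidHom.toHomPerm
    { toFun := fun c => (fun j => (exists_img c j).choose : Function.End (Fin 693))
      map_one' := funext fun j => img_unique (exists_img 1 j).choose_spec fun x => by
        show (objN j.val).testBit (sigma 1 x).val = _
        rw [map_one]; rfl
      map_mul' := fun g h => funext fun j => img_unique (exists_img (g * h) j).choose_spec fun x => by
        show (objN (exists_img g (exists_img h j).choose).choose.val).testBit _ = _
        rw [map_mul]
        exact ((exists_img g (exists_img h j).choose).choose_spec _).trans ((exists_img h j).choose_spec x) }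

theorem psi_spec (c : H0) (j : Fin 693) : Img c j (psi c j) := (exists_img c j).choose_spec

theorem psi_hgen (k : Fin 2) (j : Fin 693) : (psi (hgen k) j).val = imgO k.val j.val := by
  obtain ⟨j', h, e⟩ := img_hgen k j
  rw [img_unique (psi_spec _ j) h, e]

theorem testBit_meet : ∀ (L : List ℕ) (t y : ℕ),
    (L.foldr (fun j t => objN j &&& t) t).testBit y = (L.all (fun j => (objN j).testBit y) && t.testBit y)
  | [], t, y => by simp
  | a :: L, t, y => by rw [List.foldr_cons, Nat.testBit_land, testBit_meet L, List.all_cons, Bool.and_assoc]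

theorem psi_injective : Function.Injective psi := by
  refine (injective_iff_map_eq_one psi).2 fun c hc => ?_
  refine eq_one_of_fix fun p hp hlt => ?_
  obtain ⟨i, hi, rfl⟩ := List.mem_iff_getElem.1 hp
  have h := allLt_spec chk_sel.2 hi
  simp only [Bool.and_eq_true, decide_eq_true_eq, List.getD_eq_getElem _ _ hi, List.all_eq_true, beq_iff_eq] at h
  obtain ⟨⟨-, hm⟩, he⟩ := h
  refine Fin.ext ?_
  have hkey : (2 ^ selV[i] : ℕ).testBit (sigma c ⟨selV[i], hlt⟩).val = true := by
    rw [← he, testBit_meet, Nat.testBit_two_pow_sub_one, decide_eq_true (Fin.isLt _), Bool.and_true,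
      List.all_eq_true]
    intro j hj
    have h := psi_spec c ⟨j, (hm j hj).1⟩ ⟨selV[i], hlt⟩
    rw [hc] at h
    exact h.trans (hm j hj).2
  rw [Nat.testBit_two_pow, decide_eq_true_eq] at hkey
  exact hkey.symm

variable {F : Type} [Field F] [Fintype F] (R : Root F)

theorem ptV_spec (j : Fin 693) : ptV j.val ≠ decV 0 ∧ hermC (ptV j.val) (ptV j.val) = 0 ∧
    ∀ c < 4, c ≠ 0 → idxV (normV (smulV c (ptV j.val))) = j.val := by
  have h := allLt_spec chk_ptV j.isLt
  simp only [Bool.and_eq_true, List.all_eq_true, List.mem_range, Bool.or_eq_true, beq_iff_eq, bne_iff_ne] at h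
  exact ⟨h.1.1, h.1.2, fun c hc h0 => (h.2 c hc).resolve_left h0⟩

theorem φv_zero : φv R (decV 0) = 0 := by
  funext i
  rw [φv, decV, getD_range_map, Nat.zero_div, Nat.zero_mod, φ_zero]
  rfl

theorem φv_ne (j : Fin 693) : φv R (ptV j.val) ≠ 0 := fun h =>
  (ptV_spec j).1 (φv_inj R (okV_decV _) (okV_decV _) (h.trans (φv_zero R).symm))

theorem φv_iso (j : Fin 693) : Cfsg.hermForm 6 F 2 (φv R (ptV j.val)) (φv R (ptV j.val)) = 0 := by
  rw [← φ_hermC, (ptV_spec j).2.1, φ_zero]

/-- The isotropic point of an index. -/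
noncomputable def isoOf (j : Fin 693) : Iso 6 F 2 := isoPt R.conj (φv_ne R j) (φv_iso R j)

theorem dotC_lt (u v : List ℕ) : dotC u v < 4 := by simp only [dotC, addC]; omega

theorem isoOf_bijective : Function.Bijective (isoOf R) := by
  constructor
  · intro i j h
    obtain ⟨a, ha⟩ := (isoPt_eq_iff R.conj _ _ _ _).1 h
    obtain ⟨c, hc, rfl⟩ := φ_surj R a
    have hc0 : c ≠ 0 := by
      rintro rfl
      rw [φ_zero, zero_smul] at ha
      exact φv_ne R i ha.symm
    rw [← φv_smulV] at ha
    have e := φv_inj R (okV_smulV _ _) (okV_decV _) ha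
    have hj := (ptV_spec j).2.2 c hc hc0
    rw [e] at hj
    have hi := (ptV_spec i).2.2 1 (by norm_num) one_ne_zero
    have h1 : smulV 1 (ptV i.val) = ptV i.val := by
      refine φv_inj R (okV_smulV _ _) (okV_decV _) ?_
      rw [φv_smulV, φ_one, one_smul]
    rw [h1] at hi
    exact Fin.ext (hi.symm.trans hj)
  · intro p
    obtain ⟨v, hv, hvv, rfl⟩ := iso_cases R.conj p
    obtain ⟨w, hw, rfl⟩ := φv_surj R v
    obtain ⟨hlt, hdec⟩ := decV_encV hw
    have h := allLt_spec chk_ptsAll hlt
    simp only [Bool.and_eq_true, Bool.or_eq_true, decide_eq_true_eq, List.any_eq_true, List.mem_range,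
      beq_iff_eq, bne_iff_ne, hdec] at h
    rcases h with (h | h) | ⟨h, l, -, hl⟩
    · exact absurd ((congrArg (φv R) (hdec.symm.trans (congrArg decV h))).trans (φv_zero R)) hv
    · exact absurd (φ_inj R (dotC_lt _ _) (by norm_num) ((φ_hermC R _ _).trans (hvv.trans (φ_zero R).symm))) h
    · exact ⟨⟨_, h⟩, ((isoPt_eq_iff R.conj _ _ _ _).2 ⟨φ R l, by rw [← φv_smulV, hl]⟩).symm⟩

theorem card_PSU62 (C : Conj F 2) : Nat.card (Cfsg.PSU 6 F 2) = 9196830720 := by
  have h := card_PSU C (n := 6) (by norm_num)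
  norm_num [Finset.prod_range_succ, Nat.even_iff] at h
  omega

theorem nonempty_equiv (R : Root F) : Nonempty (KU ≃* Cfsg.PSU 6 F 2) := by
  haveI : Fact (Nonempty (Conj F 2)) := ⟨⟨R.conj⟩⟩
  have hker : Subgroup.center (Cfsg.SU 6 F 2) ≤ (toPermHom (Cfsg.SU 6 F 2) (Iso 6 F 2)).ker := fun A hA =>
    MonoidHom.mem_ker.2 (Equiv.ext fun p => fix_of_mem_center R.conj (by norm_num) A hA p)
  let ρ : Cfsg.PSU 6 F 2 →* Perm (Iso 6 F 2) := QuotientGroup.lift _ _ hker
  have hρ : Function.Injective ρ := by
    refine (injective_iff_map_eq_one ρ).2 fun x hx => ?_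
    obtain ⟨A, rfl⟩ := QuotientGroup.mk_surjective x
    exact (QuotientGroup.eq_one_iff A).2 (mem_center_of_fix R.conj (by norm_num) A fun p => Perm.ext_iff.1 hx p)
  let e : Fin 693 ≃ Iso 6 F 2 := Equiv.ofBijective _ (isoOf_bijective R)
  let τ : H0 →* Perm (Iso 6 F 2) := e.permCongrHom.toMonoidHom.comp psi
  have hτ : Function.Injective τ := e.permCongrHom.injective.comp psi_injective
  have hle : τ.range ≤ ρ.range := by
    rw [MonoidHom.range_eq_map, ← closure_hgen, MonoidHom.map_closure, Subgroup.closure_le]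
    rintro _ ⟨_, ⟨k, rfl⟩, rfl⟩
    have h := allLt_spec chk_matU k.isLt
    simp only [Bool.and_eq_true] at h
    obtain ⟨g, hg⟩ := φm_SU R h.1
    refine ⟨QuotientGroup.mk g, Equiv.ext fun p => ?_⟩
    obtain ⟨j, rfl⟩ := e.surjective p
    show g • e j = e (psi (hgen k) (e.symm (e j)))
    rw [Equiv.symm_apply_apply]
    show g • isoOf R j = isoOf R (psi (hgen k) j)
    rw [isoOf, smul_isoPt, isoOf, isoPt_eq_iff]
    have h2 := allLt_spec h.2 j.isLt
    simp only [List.any_eq_true, beq_iff_eq, List.mem_range] at h2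
    obtain ⟨c, -, hc⟩ := h2
    exact ⟨φ R c, by rw [hg, ← φv_mvC, hc, φv_smulV, psi_hgen]⟩
  have hcard : Nat.card τ.range = Nat.card ρ.range := by
    rw [← Nat.card_congr (MonoidHom.ofInjective hτ).toEquiv, ← Nat.card_congr (MonoidHom.ofInjective hρ).toEquiv,
      card_H0, card_PSU62 R.conj]
  haveI : Finite (Cfsg.PSU 6 F 2) := Nat.finite_of_card_ne_zero (by rw [card_PSU62 R.conj]; norm_num)
  haveI : Finite ρ.range := Finite.of_equiv _ (MonoidHom.ofInjective hρ).toEquiv
  have heq := Subgroup.eq_of_le_of_card_ge hle hcard.ge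
  exact ⟨((Subgroup.topEquiv.symm.trans (MulEquiv.subgroupCongr H0_top.symm)).trans
    ((MonoidHom.ofInjective hτ).trans (MulEquiv.subgroupCongr heq))).trans (MonoidHom.ofInjective hρ).symm⟩

end CfsgLib.Co2U62
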