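import Cfsg.Agent.Co2U62.Iso

/-!
The joint stabiliser of two minimal vectors of inner product -2 is PSU(6, 2).
-/

set_option autoImplicit false
set_option maxRecDepth 100000

namespace CfsgLib.Co2U62

open Cfsg CfsgLib.Leech MulAction

theorem main (v w : ↥leechLattice) (hv : sqNorm v.1 = 32) (hw : sqNorm w.1 = 32) (hd : dotInt v.1 w.1 = -16)
    (F : Type) [Field F] [Fintype F] (hF : Fintype.card F = 4) :
    Nonempty (↥(stabilizer ↥Co0 v ⊓ stabilizer ↥Co0 w) ≃* PSU 6 F 2) := by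
  obtain ⟨g, gv, gw⟩ := transitive_dot16 hv hw hd pair_data.1 pair_data.2.1 pair_data.2.2
  obtain ⟨R⟩ := nonempty_root hF
  obtain ⟨e⟩ := nonempty_equiv R
  have h : (stabilizer ↥Co0 v ⊓ stabilizer ↥Co0 w).map (MulAut.conj g).toMonoidHom = KU := by
    ext x
    rw [Subgroup.mem_map_equiv, MulAut.conj_symm_apply, Subgroup.mem_inf, mem_stabilizer_iff, mem_stabilizer_iff,
      mem_KU, mul_smul, mul_smul, inv_smul_eq_iff, mul_smul, mul_smul, inv_smul_eq_iff, gv, gw]
  exact ⟨(((stabilizer ↥Co0 v ⊓ stabilizer ↥Co0 w).equivMapOfInjective _ (MulAut.conj g).injective).trans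
    (MulEquiv.subgroupCongr h)).trans e⟩

end CfsgLib.Co2U62
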